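import Cfsg.Agent.H588.AltElt
import Cfsg.Agent.H524.CCSub

/-!
# Class sizes in alternating groups: the conditions `PrimB` and `RegB` (for S4128 and S4129)
-/

set_option autoImplicit false

namespace Cfsg.Agent.H588.AltCls

open Subgroup AltElt Cfsg.Agent.H524.DirRed

/-- The class of a 5-cycle has size divisible by 12. -/
theorem exists_five {n : ℕ} (hn : 5 ≤ n) :
    ∃ x : alternatingGroup (Fin n), orderOf x = 5 ∧
      12 ∣ (centralizer ({x} : Set (alternatingGroup (Fin n)))).index := by
  obtain ⟨x, hx, hc⟩ := exists_rep (n := n) (k := 1) (a := 5) one_ne_zero (by norm_num) (by omega) (by decide)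
  refine ⟨x, hx, ?_⟩
  rw [mul_assoc] at hc
  have h1 := (Nat.factorial_dvd_descFactorial n (1 * 5)).trans (desc_dvd (by omega) (by omega) hc)
  have h2 : (1 * 5).factorial = 120 := by decide
  rw [h2] at h1
  simp only [pow_one, Nat.factorial_one, mul_one] at h1
  omega

/-- Elements of order 3 with at most two fixed points. -/
theorem exists_three {n q : ℕ} (hn : 5 ≤ n) (hq : q.Prime) (hq5 : 5 ≤ q) (hqn : q ≤ n) :
    ∃ x : alternatingGroup (Fin n), orderOf x = 3 ∧
      q ∣ (centralizer ({x} : Set (alternatingGroup (Fin n)))).index := by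
  obtain ⟨x, hx, hc⟩ := exists_rep (n := n) (k := n / 3) (a := 3) (by omega) (by norm_num) (by omega)
    ⟨n / 3 * 2, by ring⟩
  refine ⟨x, hx, dvd_index (by omega) (by norm_num) (by omega) hc hq (by omega) ?_ hqn (by omega)⟩
  intro h
  have := Nat.le_of_dvd (by norm_num) h
  omega

/-- Involutions with at most three fixed points. -/
theorem exists_two {n q : ℕ} (hn : 5 ≤ n) (hq : q.Prime) (hq5 : 5 ≤ q) (hqn : q ≤ n) :
    ∃ x : alternatingGroup (Fin n), orderOf x = 2 ∧
      q ∣ (centralizer ({x} : Set (alternatingGroup (Fin n)))).index := by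
  obtain ⟨x, hx, hc⟩ := exists_rep (n := n) (k := n / 4 * 2) (a := 2) (by omega) (by norm_num) (by omega)
    ⟨n / 4 * 3, by ring⟩
  refine ⟨x, hx, dvd_index (by omega) (by norm_num) (by omega) hc hq (by omega) ?_ hqn (by omega)⟩
  intro h
  have := Nat.le_of_dvd (by norm_num) h
  omega

/-- **`PrimB` for the alternating groups.** -/
theorem primB_alt {n p : ℕ} (hn : 5 ≤ n) (hp : p.Prime) (hd : p ∣ Nat.card (alternatingGroup (Fin n))) :
    PrimB (alternatingGroup (Fin n)) p := by
  have hpn := le_of_dvd_card (by omega) hp hd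
  by_cases h5 : 5 ≤ p
  · obtain ⟨x, hx, hi⟩ := exists_three hn hp h5 hpn
    exact ⟨x, ⟨3, 1, Nat.prime_three, by omega, by rw [hx, pow_one]⟩, hi⟩
  · obtain ⟨x, hx, hi⟩ := exists_five hn
    refine ⟨x, ⟨5, 1, by norm_num, by omega, by rw [hx, pow_one]⟩, ?_⟩
    have h4 : p ≠ 4 := by rintro rfl; exact absurd hp (by norm_num)
    have h2 := hp.two_le
    have h3 : p ∣ 12 := by
      obtain rfl | rfl : p = 2 ∨ p = 3 := by omega
      · norm_num
      · norm_num
    exact h3.trans hi

theorem not_dvd_prime {p a : ℕ} (hp : p.Prime) (ha : a.Prime) (h : p ≠ a) : ¬ p ∣ a := fun hd =>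
  h ((Nat.prime_dvd_prime_iff_eq hp ha).1 hd)

/-- **`RegB` for the alternating groups.** -/
theorem regB_alt {n p q : ℕ} (hn : 5 ≤ n) (hp : p.Prime) (hq : q.Prime) (hpq : p ≠ q)
    (hd : q ∣ Nat.card (alternatingGroup (Fin n))) : RegB (alternatingGroup (Fin n)) p q := by
  have hqn := le_of_dvd_card (by omega) hq hd
  have h4 : q ≠ 4 := by rintro rfl; exact absurd hq (by norm_num)
  have h2 := hq.two_le
  by_cases h5 : 5 ≤ q
  · by_cases h3 : p = 3
    · obtain ⟨x, hx, hi⟩ := exists_two hn hq h5 hqn
      exact ⟨x, by rw [hx]; exact not_dvd_prime hp Nat.prime_two (by omega), hi⟩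
    · obtain ⟨x, hx, hi⟩ := exists_three hn hq h5 hqn
      exact ⟨x, by rw [hx]; exact not_dvd_prime hp Nat.prime_three h3, hi⟩
  · by_cases hp5 : p = 5
    · subst hp5
      obtain rfl | rfl : q = 2 ∨ q = 3 := by omega
      · rcases Nat.lt_or_ge n 6 with h6 | h6
        · obtain rfl : n = 5 := by omega
          obtain ⟨x, hx, hc⟩ := exists_rep (n := 5) (k := 1) (a := 3) one_ne_zero (by norm_num) (by omega) (by decide)
          refine ⟨x, by rw [hx]; norm_num, ?_⟩
          rw [mul_assoc] at hc
          have h1 := desc_dvd (by omega) (by omega) hc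
          have h3 : Nat.descFactorial 5 (1 * 3) = 60 := by decide
          rw [h3] at h1
          simp only [pow_one, Nat.factorial_one, mul_one] at h1
          omega
        · obtain ⟨x, hx, hc⟩ := exists_rep (n := n) (k := 2) (a := 3) two_ne_zero (by norm_num) (by omega) (by decide)
          refine ⟨x, by rw [hx]; norm_num, ?_⟩
          rw [mul_assoc] at hc
          have h1 := (Nat.factorial_dvd_descFactorial n (2 * 3)).trans (desc_dvd (by omega) (by omega) hc)
          have h3 : (2 * 3).factorial = 720 := by decide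
          have h7 : (2 : ℕ).factorial = 2 := by decide
          rw [h3, h7] at h1
          omega
      · obtain ⟨x, hx, hc⟩ := exists_rep (n := n) (k := 2) (a := 2) two_ne_zero (by norm_num) (by omega) (by decide)
        refine ⟨x, by rw [hx]; norm_num, ?_⟩
        rw [mul_assoc] at hc
        have h1 := (Nat.factorial_dvd_descFactorial n (2 * 2)).trans (desc_dvd (by omega) (by omega) hc)
        have h3 : (2 * 2).factorial = 24 := by decide
        have h7 : (2 : ℕ).factorial = 2 := by decide
        rw [h3, h7] at h1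
        omega
    · obtain ⟨x, hx, hi⟩ := exists_five hn
      refine ⟨x, by rw [hx]; exact not_dvd_prime hp (by norm_num) hp5, ?_⟩
      have h3 : q ∣ 12 := by
        obtain rfl | rfl : q = 2 ∨ q = 3 := by omega
        · norm_num
        · norm_num
      exact h3.trans hi

end Cfsg.Agent.H588.AltCls
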